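import Mathlib
import Cfsg.Prelude.Def_Solvable
import Cfsg.Prelude.Def_Transfer
import Cfsg.Agent.Lib.Cores
import Cfsg.Agent.PLocal.Constrained
import Cfsg.Agent.PLocal.ConjFunctor
import Cfsg.Agent.PLocal.CoprimeLift
import Cfsg.Agent.PLocal.ComplementReduction
import Cfsg.Agent.Transfer.NormalPComplement
import Cfsg.Agent.S0072

/-!
# Reduction of the normal `p`-complement theorems for a family of functors, relative to a class of groups

`hasNormalPComplement_of_family_class`: the version of `H41.SecReduction.hasNormalPComplement_of_functor_class`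
(and its proof) for a nonempty family `Φ i` of conjugacy functors: if all normalizers `N_G(Φ i (P))` have normal
`p`-complements, so has `G`, provided that this holds in the minimal configuration.
-/

set_option autoImplicit false

universe u

namespace Cfsg.Agent.H37.FamReduction

open Cfsg Cfsg.Agent
open scoped Pointwise commutatorElement
open Cfsg.Agent.PLocal.ComplementReduction (npc_of_map normalizer_le npc_conj
  isPSolvable_of_quotient_npc eq_of_npc exists_abelian)

section functor

variable {p : ℕ} [hp : Fact p.Prime] {ι : Type} (Φ : ι → ∀ (G : Type u) [Group G], Subgroup G → Subgroup G)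

/-- Restriction to a proper subgroup. -/
theorem npc_subgroup
    (C : ∀ (G : Type u) [Group G], Prop)
    (hCsub : ∀ (G : Type u) [Group G] (L : Subgroup G), C G → C L)
    (hΦmap : ∀ (i : ι) (G G' : Type u) [Group G] [Group G'] [Finite G] [Finite G'] (f : G →* G')
      (P : Subgroup G), Set.InjOn f P → IsPGroup p P → (Φ i G P).map f = Φ i G' (P.map f))
    (G : Type u) [Group G] [Finite G]
    (hC : C G)
    (IH : ∀ (L : Type u) [Group L] [Finite L], C L → Nat.card L < Nat.card G → ∀ Q : Sylow p L,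
      (∀ i, Cfsg.HasNormalPComplement p (Subgroup.normalizer (Φ i L (Q : Subgroup L) : Set L))) →
      Cfsg.HasNormalPComplement p L)
    (L : Subgroup G) (hL : L ≠ ⊤) (Q : Sylow p L)
    (h : ∀ i, Cfsg.HasNormalPComplement p
      (Subgroup.normalizer (Φ i G ((Q : Subgroup L).map L.subtype) : Set G))) :
    Cfsg.HasNormalPComplement p L := by
  refine IH L (hCsub G L hC) ?_ Q (fun i => npc_of_map (Φ i) (hΦmap i) L.subtype L.subtype_injective _ Q.isPGroup' (h i))
  have := PLocal.ConjFunctor.card_lt_card_of_lt (lt_top_iff_ne_top.mpr hL)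
  rwa [Subgroup.card_top] at this

/-- Restriction to a proper subgroup containing the Sylow subgroup `P`. -/
theorem npc_overgroup
    (C : ∀ (G : Type u) [Group G], Prop)
    (hCsub : ∀ (G : Type u) [Group G] (L : Subgroup G), C G → C L)
    (hΦmap : ∀ (i : ι) (G G' : Type u) [Group G] [Group G'] [Finite G] [Finite G'] (f : G →* G')
      (P : Subgroup G), Set.InjOn f P → IsPGroup p P → (Φ i G P).map f = Φ i G' (P.map f))
    (G : Type u) [Group G] [Finite G]
    (hC : C G)
    (IH : ∀ (L : Type u) [Group L] [Finite L], C L → Nat.card L < Nat.card G → ∀ Q : Sylow p L,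
      (∀ i, Cfsg.HasNormalPComplement p (Subgroup.normalizer (Φ i L (Q : Subgroup L) : Set L))) →
      Cfsg.HasNormalPComplement p L)
    (P : Sylow p G)
    (h : ∀ i, Cfsg.HasNormalPComplement p (Subgroup.normalizer (Φ i G (P : Subgroup G) : Set G)))
    (L : Subgroup G) (hL : L ≠ ⊤) (hPL : (P : Subgroup G) ≤ L) :
    Cfsg.HasNormalPComplement p L := by
  refine npc_subgroup Φ C hCsub hΦmap G hC IH L hL (P.subtype hPL) ?_
  intro i
  rw [Sylow.coe_subtype, Subgroup.subgroupOf_map_subtype, inf_eq_left.mpr hPL]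
  exact h i

/-- The local step: a minimal counterexample has a nontrivial normal `p`-subgroup. -/
theorem pCore_ne_bot
    (C : ∀ (G : Type u) [Group G], Prop)
    (hCsub : ∀ (G : Type u) [Group G] (L : Subgroup G), C G → C L)
    (hΦmap : ∀ (i : ι) (G G' : Type u) [Group G] [Group G'] [Finite G] [Finite G'] (f : G →* G')
      (P : Subgroup G), Set.InjOn f P → IsPGroup p P → (Φ i G P).map f = Φ i G' (P.map f))
    (hΦle : ∀ (i : ι) (G : Type u) [Group G] [Finite G] (P : Subgroup G), IsPGroup p P → Φ i G P ≤ P)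
    (hΦne : ∀ (i : ι) (G : Type u) [Group G] [Finite G] (P : Subgroup G), IsPGroup p P → P ≠ ⊥ →
      Φ i G P ≠ ⊥)
    (G : Type u) [Group G] [Finite G]
    (hC : C G)
    (IH : ∀ (L : Type u) [Group L] [Finite L], C L → Nat.card L < Nat.card G → ∀ Q : Sylow p L,
      (∀ i, Cfsg.HasNormalPComplement p (Subgroup.normalizer (Φ i L (Q : Subgroup L) : Set L))) →
      Cfsg.HasNormalPComplement p L)
    (P : Sylow p G)
    (h : ∀ i, Cfsg.HasNormalPComplement p (Subgroup.normalizer (Φ i G (P : Subgroup G) : Set G)))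
    (hG : ¬ Cfsg.HasNormalPComplement p G) : Cfsg.pCore p G ≠ ⊥ := by
  classical
  -- the `p`-part of the normalizer
  let m : Subgroup G → ℕ := fun H =>
    Nat.card ((default : Sylow p ↥(Subgroup.normalizer (H : Set G))) :
      Subgroup ↥(Subgroup.normalizer (H : Set G)))
  let X : Set (Subgroup G) := {H | IsPGroup p H ∧ H ≠ ⊥ ∧
    ¬ Cfsg.HasNormalPComplement p (Subgroup.normalizer (H : Set G))}
  have hXne : X.Nonempty := by
    by_contra hne
    rw [Set.not_nonempty_iff_eq_empty] at hne
    apply hG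
    rw [Cfsg.Agent.S0072.result p]
    intro Q hQ hQ1
    by_contra hc
    have : Q ∈ X := ⟨hQ, hQ1, hc⟩
    rw [hne] at this
    exact this
  obtain ⟨H, hHX, hHmax⟩ := Set.exists_max_image X m (Set.toFinite X) hXne
  obtain ⟨hHp, hH1, hHn⟩ := hHX
  have hNtop : Subgroup.normalizer (H : Set G) = ⊤ := by
    by_contra hne
    apply hHn
    let Q : Sylow p ↥(Subgroup.normalizer (H : Set G)) := default
    have hmH : m H = Nat.card (Q : Subgroup ↥(Subgroup.normalizer (H : Set G))) := rfl
    refine npc_subgroup Φ C hCsub hΦmap G hC IH _ hne Q ?_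
    have hHQ := PLocal.ConjFunctor.le_map_sylow_normalizer hHp Q
    have hQp := PLocal.ConjFunctor.isPGroup_map_sylow Q
    have hQc := PLocal.ConjFunctor.card_map_sylow Q
    obtain ⟨Q', hQ'⟩ : ∃ Q' : Subgroup G, Q' = (Q : Subgroup ↥(Subgroup.normalizer (H : Set G))).map
      (Subgroup.subtype _) := ⟨_, rfl⟩
    rw [← hQ'] at hHQ hQp hQc ⊢
    obtain ⟨P', hP'⟩ := hQp.exists_le_sylow
    intro i
    by_cases hQP : Q' = P'
    · rw [hQP]
      exact npc_conj (Φ i) (hΦmap i) G P P' (h i)
    · have hlt : Q' < P' := lt_of_le_of_ne hP' hQP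
      have hR := PLocal.ConjFunctor.lt_inf_normalizer P'.isPGroup' hlt
      have hQ'1 : Q' ≠ ⊥ := fun h0 => hH1 (le_bot_iff.mp (h0 ▸ hHQ))
      by_contra hcon
      have hmem : Φ i G Q' ∈ X := ⟨hQp.to_le (hΦle i G Q' hQp), hΦne i G Q' hQp hQ'1, hcon⟩
      have hle := hHmax _ hmem
      have h3 : (P' : Subgroup G) ⊓ Subgroup.normalizer (Q' : Set G) ≤
          Subgroup.normalizer (Φ i G Q' : Set G) :=
        inf_le_right.trans (normalizer_le (Φ i) (hΦmap i) G Q' hQp)
      have h4 : IsPGroup p ((P' : Subgroup G) ⊓ Subgroup.normalizer (Q' : Set G) : Subgroup G) :=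
        P'.isPGroup'.to_le inf_le_left
      obtain ⟨S, hS⟩ := PLocal.ConjFunctor.exists_sylow_of_le h4 h3
      have h5 : Nat.card Q' < Nat.card ((S : Subgroup
          ↥(Subgroup.normalizer (Φ i G Q' : Set G))).map (Subgroup.subtype _)) :=
        PLocal.ConjFunctor.card_lt_card_of_lt (lt_of_lt_of_le hR hS)
      rw [PLocal.ConjFunctor.card_map_sylow] at h5
      have h6 : Nat.card (S : Subgroup ↥(Subgroup.normalizer (Φ i G Q' : Set G))) = m (Φ i G Q') := by
        change _ = Nat.card ((default : Sylow p ↥(Subgroup.normalizer (Φ i G Q' : Set G))) :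
          Subgroup ↥(Subgroup.normalizer (Φ i G Q' : Set G)))
        rw [S.card_eq_multiplicity, Sylow.card_eq_multiplicity]
      omega
  intro h0
  apply hH1
  rw [← le_bot_iff, ← h0]
  exact Lib.Cores.le_pCore (Subgroup.normalizer_eq_top_iff.mp hNtop) hHp

/-- A minimal counterexample has no nontrivial normal `p'`-subgroup. -/
theorem pPrimeCore_eq_bot
    (C : ∀ (G : Type u) [Group G], Prop)
    (hCquo : ∀ (G : Type u) [Group G] (N : Subgroup G) [N.Normal], C G → C (G ⧸ N))
    (hΦmap : ∀ (i : ι) (G G' : Type u) [Group G] [Group G'] [Finite G] [Finite G'] (f : G →* G')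
      (P : Subgroup G), Set.InjOn f P → IsPGroup p P → (Φ i G P).map f = Φ i G' (P.map f))
    (hΦle : ∀ (i : ι) (G : Type u) [Group G] [Finite G] (P : Subgroup G), IsPGroup p P → Φ i G P ≤ P)
    (G : Type u) [Group G] [Finite G]
    (hC : C G)
    (IH : ∀ (L : Type u) [Group L] [Finite L], C L → Nat.card L < Nat.card G → ∀ Q : Sylow p L,
      (∀ i, Cfsg.HasNormalPComplement p (Subgroup.normalizer (Φ i L (Q : Subgroup L) : Set L))) →
      Cfsg.HasNormalPComplement p L)
    (P : Sylow p G)
    (h : ∀ i, Cfsg.HasNormalPComplement p (Subgroup.normalizer (Φ i G (P : Subgroup G) : Set G)))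
    (hG : ¬ Cfsg.HasNormalPComplement p G) : Cfsg.pPrimeCore p G = ⊥ := by
  by_contra hne
  obtain ⟨M, hM⟩ : ∃ M : Subgroup G, M = Cfsg.pPrimeCore p G := ⟨_, rfl⟩
  have hMn : M.Normal := by rw [hM]; exact Lib.Cores.pPrimeCore_normal p
  have hMc : (Nat.card M).Coprime p := by rw [hM]; exact Lib.Cores.pPrimeCore_coprime p
  rw [← hM] at hne
  apply hG
  refine Transfer.NormalPComplement.of_quotient M hMc ?_
  have hs := QuotientGroup.mk'_surjective M
  refine IH (G ⧸ M) (hCquo G M hC) ?_ (P.mapSurjective hs) ?_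
  · have h1 := M.card_mul_index
    have h2 : Nat.card M ≠ 1 := fun h0 => hne (Subgroup.card_eq_one.mp h0)
    have h3 : 0 < Nat.card M := Nat.card_pos
    have h4 : 0 < M.index := Nat.pos_of_ne_zero M.index_ne_zero_of_finite
    rw [Subgroup.index_eq_card] at h1 h4
    have h5 : 2 ≤ Nat.card M := by omega
    calc Nat.card (G ⧸ M) < 2 * Nat.card (G ⧸ M) := by omega
      _ ≤ Nat.card M * Nat.card (G ⧸ M) := Nat.mul_le_mul_right _ h5
      _ = Nat.card G := h1
  · intro i
    rw [Sylow.coe_mapSurjective]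
    have hdisj : (P : Subgroup G) ⊓ M = ⊥ := by
      obtain ⟨k, hk⟩ := IsPGroup.iff_card.mp P.isPGroup'
      exact (Subgroup.disjoint_of_coprime_natCard (by
        rw [hk]; exact (Nat.Coprime.pow_right k hMc).symm)).eq_bot
    have hinj : Set.InjOn (QuotientGroup.mk' M) (P : Subgroup G) := by
      intro x hx y hy hxy
      have h1 : x⁻¹ * y ∈ (P : Subgroup G) ⊓ M :=
        Subgroup.mem_inf.mpr ⟨mul_mem (inv_mem hx) hy, QuotientGroup.eq.mp hxy⟩
      rw [hdisj, Subgroup.mem_bot] at h1
      exact (inv_mul_eq_one.mp h1)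
    have h1 := hΦmap i G (G ⧸ M) (QuotientGroup.mk' M) P hinj P.isPGroup'
    rw [← h1, ← PLocal.CoprimeLift.map_normalizer_mk M _ hMc (P.isPGroup'.to_le (hΦle i G P P.isPGroup'))]
    exact Transfer.NormalPComplement.of_surjective
      ((QuotientGroup.mk' M).subgroupMap _) ((QuotientGroup.mk' M).subgroupMap_surjective _) (h i)

/-- In a minimal counterexample the quotient by `O_p(G)` has a normal `p`-complement. -/
theorem quotient_npc
    (C : ∀ (G : Type u) [Group G], Prop)
    (hCsub : ∀ (G : Type u) [Group G] (L : Subgroup G), C G → C L)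
    (hCquo : ∀ (G : Type u) [Group G] (N : Subgroup G) [N.Normal], C G → C (G ⧸ N))
    (hΦmap : ∀ (i : ι) (G G' : Type u) [Group G] [Group G'] [Finite G] [Finite G'] (f : G →* G')
      (P : Subgroup G), Set.InjOn f P → IsPGroup p P → (Φ i G P).map f = Φ i G' (P.map f))
    (hΦle : ∀ (i : ι) (G : Type u) [Group G] [Finite G] (P : Subgroup G), IsPGroup p P → Φ i G P ≤ P)
    (hΦne : ∀ (i : ι) (G : Type u) [Group G] [Finite G] (P : Subgroup G), IsPGroup p P → P ≠ ⊥ →
      Φ i G P ≠ ⊥)
    (G : Type u) [Group G] [Finite G]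
    (hC : C G)
    (IH : ∀ (L : Type u) [Group L] [Finite L], C L → Nat.card L < Nat.card G → ∀ Q : Sylow p L,
      (∀ i, Cfsg.HasNormalPComplement p (Subgroup.normalizer (Φ i L (Q : Subgroup L) : Set L))) →
      Cfsg.HasNormalPComplement p L)
    (P : Sylow p G)
    (h : ∀ i, Cfsg.HasNormalPComplement p (Subgroup.normalizer (Φ i G (P : Subgroup G) : Set G)))
    (hR1 : Cfsg.pCore p G ≠ ⊥) (hRP : (P : Subgroup G) ≠ Cfsg.pCore p G) :
    Cfsg.HasNormalPComplement p (G ⧸ Cfsg.pCore p G) := by
  obtain ⟨R, hR⟩ : ∃ R : Subgroup G, R = Cfsg.pCore p G := ⟨_, rfl⟩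
  have hRn : R.Normal := by rw [hR]; exact Lib.Cores.pCore_normal p
  have hRp : IsPGroup p R := by rw [hR]; exact Lib.Cores.pCore_isPGroup p
  have hRle : R ≤ P := by rw [hR]; exact Lib.Cores.pCore_le_sylow P
  have hRmax : ∀ N : Subgroup G, N.Normal → IsPGroup p N → N ≤ R := by
    intro N h1 h2; rw [hR]; exact Lib.Cores.le_pCore h1 h2
  have key : Cfsg.HasNormalPComplement p (G ⧸ R) := by
    rw [← hR] at hR1 hRP
    have hs := QuotientGroup.mk'_surjective R
    have hP1 : (P : Subgroup G).map (QuotientGroup.mk' R) ≠ ⊥ := by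
      intro h0
      rw [Subgroup.map_eq_bot_iff, QuotientGroup.ker_mk'] at h0
      exact hRP (le_antisymm h0 hRle)
    have hPbp : IsPGroup p ((P : Subgroup G).map (QuotientGroup.mk' R)) := P.isPGroup'.map _
    refine IH (G ⧸ R) (hCquo G R hC) ?_ (P.mapSurjective hs) ?_
    · have h1 := R.card_mul_index
      have h2 : Nat.card R ≠ 1 := fun h0 => hR1 (Subgroup.card_eq_one.mp h0)
      have h3 : 0 < Nat.card R := Nat.card_pos
      have h4 : 0 < R.index := Nat.pos_of_ne_zero R.index_ne_zero_of_finite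
      rw [Subgroup.index_eq_card] at h1 h4
      have h5 : 2 ≤ Nat.card R := by omega
      calc Nat.card (G ⧸ R) < 2 * Nat.card (G ⧸ R) := by omega
        _ ≤ Nat.card R * Nat.card (G ⧸ R) := Nat.mul_le_mul_right _ h5
        _ = Nat.card G := h1
    · intro i
      rw [Sylow.coe_mapSurjective]
      obtain ⟨W, hW⟩ : ∃ W : Subgroup (G ⧸ R),
        W = Φ i (G ⧸ R) ((P : Subgroup G).map (QuotientGroup.mk' R)) := ⟨_, rfl⟩
      have hWne : W ≠ ⊥ := by rw [hW]; exact hΦne i _ _ hPbp hP1
      have hWp : IsPGroup p W := by rw [hW]; exact hPbp.to_le (hΦle i _ _ hPbp)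
      have hPW : (P : Subgroup G).map (QuotientGroup.mk' R) ≤ Subgroup.normalizer (W : Set (G ⧸ R)) := by
        rw [hW]
        exact Subgroup.le_normalizer.trans (normalizer_le (Φ i) (hΦmap i) _ _ hPbp)
      rw [← hW]
      let K : Subgroup G := W.comap (QuotientGroup.mk' R)
      have hKn : (Subgroup.normalizer (W : Set (G ⧸ R))).comap (QuotientGroup.mk' R) =
          Subgroup.normalizer (K : Set G) := by
        apply Subgroup.comap_normalizer_eq_of_le_range
        rw [MonoidHom.range_eq_top.mpr hs]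
        exact le_top
      have hKp : IsPGroup p K := by
        apply hWp.comap_of_ker_isPGroup
        rw [QuotientGroup.ker_mk']; exact hRp
      have hPK : (P : Subgroup G) ≤ Subgroup.normalizer (K : Set G) := by
        rw [← hKn, ← Subgroup.map_le_iff_le_comap]
        exact hPW
      have hKtop : Subgroup.normalizer (K : Set G) ≠ ⊤ := by
        intro h0
        have h1 := hRmax K (Subgroup.normalizer_eq_top_iff.mp h0) hKp
        apply hWne
        rw [← Subgroup.map_comap_eq_self_of_surjective hs W, Subgroup.map_eq_bot_iff,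
          QuotientGroup.ker_mk']
        exact h1
      have h1 := npc_overgroup Φ C hCsub hΦmap G hC IH P h _ hKtop hPK
      rw [← hKn] at h1
      exact Transfer.NormalPComplement.of_surjective
        ((QuotientGroup.mk' R).subgroupComap _)
        ((QuotientGroup.mk' R).subgroupComap_surjective_of_surjective _ hs) h1
  subst hR
  exact key

end functor

/-- Reduction of the normal `p`-complement theorems to the minimal configuration, for the groups of a class closed
under subgroups and quotients. -/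
theorem hasNormalPComplement_of_family_class {p : ℕ} [hp : Fact p.Prime]
    {ι : Type} [Nonempty ι] (Φ : ι → ∀ (G : Type u) [Group G], Subgroup G → Subgroup G)
    (C : ∀ (G : Type u) [Group G], Prop)
    (hCsub : ∀ (G : Type u) [Group G] (L : Subgroup G), C G → C L)
    (hCquo : ∀ (G : Type u) [Group G] (N : Subgroup G) [N.Normal], C G → C (G ⧸ N))
    (hΦmap : ∀ (i : ι) (G G' : Type u) [Group G] [Group G'] [Finite G] [Finite G'] (f : G →* G')
      (P : Subgroup G), Set.InjOn f P → IsPGroup p P → (Φ i G P).map f = Φ i G' (P.map f))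
    (hΦle : ∀ (i : ι) (G : Type u) [Group G] [Finite G] (P : Subgroup G), IsPGroup p P → Φ i G P ≤ P)
    (hΦne : ∀ (i : ι) (G : Type u) [Group G] [Finite G] (P : Subgroup G), IsPGroup p P → P ≠ ⊥ →
      Φ i G P ≠ ⊥)
    (hmin : ∀ (G : Type u) [Group G] [Finite G], C G → ∀ (P : Sylow p G) (A : Subgroup G), A.Normal →
      Cfsg.pCore p G < A → ⁅A, A⁆ ≤ Cfsg.pCore p G → ((Cfsg.pCore p G).relIndex A).Coprime p →
      A ⊔ (P : Subgroup G) = ⊤ →
      Subgroup.centralizer (Cfsg.pCore p G : Set G) ≤ Cfsg.pCore p G →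
      (∀ M : Subgroup G, (P : Subgroup G) ≤ M → M = P ∨ M = ⊤) →
      (P : Subgroup G) ≠ Cfsg.pCore p G →
      Cfsg.HasNormalPComplement p (G ⧸ Cfsg.pCore p G) →
      (∀ i, Cfsg.HasNormalPComplement p (Subgroup.normalizer (Φ i G (P : Subgroup G) : Set G))) →
      Cfsg.HasNormalPComplement p G)
    (G : Type u) [Group G] [Finite G] (hC : C G) (P : Sylow p G)
    (h : ∀ i, Cfsg.HasNormalPComplement p (Subgroup.normalizer (Φ i G (P : Subgroup G) : Set G))) :
    Cfsg.HasNormalPComplement p G := by
  obtain ⟨n, hn⟩ : ∃ n, Nat.card G = n := ⟨_, rfl⟩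
  induction n using Nat.strong_induction_on generalizing G with
  | _ n ih =>
    have IH : ∀ (L : Type u) [Group L] [Finite L], C L → Nat.card L < Nat.card G → ∀ Q : Sylow p L,
        (∀ i, Cfsg.HasNormalPComplement p (Subgroup.normalizer (Φ i L (Q : Subgroup L) : Set L))) →
        Cfsg.HasNormalPComplement p L := by
      intro L _ _ hCL hL Q hQ
      exact ih (Nat.card L) (by omega) L hCL Q hQ rfl
    by_contra hG
    have h1 := pCore_ne_bot Φ C hCsub hΦmap hΦle hΦne G hC IH P h hG
    have h2 := pPrimeCore_eq_bot Φ C hCquo hΦmap hΦle G hC IH P h hG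
    have h3 : (P : Subgroup G) ≠ Cfsg.pCore p G := by
      intro h0
      apply hG
      have h4 : (P : Subgroup G).Normal := by rw [h0]; exact Lib.Cores.pCore_normal p
      obtain ⟨i⟩ := (inferInstance : Nonempty ι)
      have h5 := normalizer_le (Φ i) (hΦmap i) G P P.isPGroup'
      have h := h i
      rw [Subgroup.normalizer_eq_top_iff.mpr h4, top_le_iff] at h5
      rw [h5] at h
      exact (Transfer.NormalPComplement.congr Subgroup.topEquiv).mp h
    have h4 := quotient_npc Φ C hCsub hCquo hΦmap hΦle hΦne G hC IH P h h1 h3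
    have h5 := isPSolvable_of_quotient_npc _ (Lib.Cores.pCore_isPGroup p) h4
    have h6 := PLocal.Constrained.centralizer_pCore_le h2 (PLocal.PSolvable.isPSolvable_subgroup h5 _)
    have h7 : ∀ M : Subgroup G, (P : Subgroup G) ≤ M → M = P ∨ M = ⊤ := by
      intro M hM
      by_cases hMt : M = ⊤
      · exact Or.inr hMt
      · exact Or.inl (eq_of_npc h6 P M hM (npc_overgroup Φ C hCsub hΦmap G hC IH P h M hMt hM))
    obtain ⟨A, hA1, hA2, hA3, hA4, hA5⟩ := exists_abelian P h3 h7 h4
    exact hG (hmin G hC P A hA1 hA2 hA3 hA4 hA5 h6 h7 h3 h4 h)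

end Cfsg.Agent.H37.FamReduction
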